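import Mathlib

/-!
# Data of a coset enumeration
-/

set_option autoImplicit false

namespace Cfsg.Agent.Lib.KnownSimple.MultM.U33G

/-- Generated data. -/
def par1 : ℕ := 0xdccba99876654433221100
/-- Generated data. -/
def gix1 : ℕ := 0x92912588948
/-- Generated data. -/
def dp1 : ℕ := 0x2db6db649246db488
/-- Generated data. -/
def fa1 : ℕ := 0x15a4e718c20f7358b5a928398a418835ab6946357273e1362e2a4bd2e41cc65148821c632884108000
/-- Generated data. -/
def fl1 : ℕ := 0x20208002020400002001010004100040010102001010008100020416304041010008002020800002001010004102000410000080810008080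
/-- Generated data. -/
def fb1 : ℕ := 0xd6418a9a6a941cc67148418c420841585694a356b73e719ca3183deb7358b5292841ce62948310400
/-- Generated data. -/
def fk1 : ℕ := 0x41904418c421888310c82208831888b3012504893731ed0020001c050000050011020003000000021
/-- Generated data. -/
def po1 : ℕ := 0xc6c5c4c3c2c1c0bfbebdbcbbbab9b8b7b6b5b4b3b2b1b0afa39c9c958e8e817f7165594d4141413535352e2e27272727271b1b1b0e0e0707070000000000000000
/-- Generated data. -/
def pc1 : ℕ := 0x111111111111111111111111c70770d2ecccc00c007070000c00d070070000000
/-- Generated data. -/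
def pa1 : ℕ := 0x13233a6cc1c2e9ca9324448141c345891018284060931212101c5973258daf9d31212228dbba8c890c3408e3c66ee59b86d1d212228543e4c58506124d2c068d14262c6d5bc546850612450a62c6d5bc58f151a2e653aa5eedb2242a131636ad6ae34283040008289228dbb64440995242038d1e758b03830597325850d3a7d8aa345cc9636ad3161418491427078c0c10181061438d3a58506080c083020c287165c908080c2892630304021438d
/-- Generated data. -/
def can1 : ℕ := 0x15a4e307b9ac5a928398a418820
/-- Generated data. -/
def tb1_0 : ℕ := 0x109b2344acf2729e468ca830440
/-- Generated data. -/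
def fi1_0 : ℕ := 0x2793d679e14d9bccf5704ae1cb22a0c0
/-- Generated data. -/
def tb1_1 : ℕ := 0x14646497a1b33160e3ad4209060
/-- Generated data. -/
def fi1_1 : ℕ := 0x28fdcefa7b78a3d325d32903acac5101
/-- Generated data. -/
def tb1_2 : ℕ := 0xd9c1527ba865c4881b04939401
/-- Generated data. -/
def fi1_2 : ℕ := 0x404af9e1d2c7d335426188c5e4568d1219482

end Cfsg.Agent.Lib.KnownSimple.MultM.U33G
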